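import Cfsg.Agent.H977.E83.Wact
import Cfsg.Agent.H738.E83.Cube

/-!
# S5925, box K (N1): `[r, [r, q]] = 0` forces `z₁ = z₃ = z₄ = 0` (helper74)
-/

set_option autoImplicit false
set_option maxRecDepth 100000

namespace Cfsg.Agent.H74.E83.N1

open Matrix Cfsg Cfsg.Lie
open Cfsg.Agent.ChevalleyStructure Cfsg.Agent.ChevalleyStructure.JacTab Cfsg.Agent.ChevalleyStructure.JacDataE8
open Cfsg.Agent.H64.E83 (L3 mx er vec)
open Cfsg.Agent.H738.E83 (St Sem vb okw aw vs sem_vs vl cv cv_d0 d0 bt br br_add_left br_add_right br_smul_left br_smul_right ky)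
open Cfsg.Agent.H977.E83 (ql r0 bh1 bh2 bh3 bh4)

/-- the five vectors -/
def hh : Fin 5 → List (ℕ × Bool) := ![r0, bh1, bh2, bh3, bh4]

/-- force a state -/
def frS (S : St) (k : St → Bool) : Bool := match S with | (p, n) => k (p, n)

theorem frS_eq (S : St) (k : St → Bool) : frS S k = k S := by obtain ⟨p, n⟩ := S; rfl

/-- the coordinate `c` of the first column is `e` -/
def okc (S : St) (c e : ℕ) : Bool :=
  match S with
  | (p, n) =>
    match e with
    | 0 => !(Nat.testBit p (Nat.mul 248 c)) && !(Nat.testBit n (Nat.mul 248 c))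
    | 1 => (Nat.testBit p (Nat.mul 248 c)) && !(Nat.testBit n (Nat.mul 248 c))
    | _ => !(Nat.testBit p (Nat.mul 248 c)) && (Nat.testBit n (Nat.mul 248 c))

/-- the value -/
def vz (e : ℕ) : ZMod 3 := match e with | 0 => 0 | 1 => 1 | _ => -1

theorem okc_spec {S : St} {c e : ℕ} (h : okc S c e = true) : vl S (248 * c) = vz e := by
  obtain ⟨p, n⟩ := S
  have h0 : bt false = 0 := rfl
  have h1 : bt true = 1 := rfl
  have e1 : Nat.mul 248 c = 248 * c := rfl
  unfold vl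
  match e, h with
  | 0, h =>
    unfold okc at h
    simp only [e1, Bool.and_eq_true, Bool.not_eq_true'] at h
    simp only [h.1, h.2, h0, sub_zero]; rfl
  | 1, h =>
    unfold okc at h
    simp only [e1, Bool.and_eq_true, Bool.not_eq_true'] at h
    simp only [h.1, h.2, h0, h1, sub_zero]; rfl
  | e + 2, h =>
    unfold okc at h
    simp only [e1, Bool.and_eq_true, Bool.not_eq_true'] at h
    simp only [h.1, h.2, h0, h1, zero_sub]; rfl

/-- coordinate 6 -/
def t6 : Fin 5 → Fin 5 → ℕ :=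
  ![![0, 0, 0, 0, 1], ![0, 0, 0, 0, 2], ![0, 0, 0, 0, 0], ![0, 0, 0, 0, 0], ![0, 1, 0, 0, 0]]
/-- coordinate 18 -/
def t18 : Fin 5 → Fin 5 → ℕ :=
  ![![0, 0, 0, 0, 0], ![0, 0, 0, 0, 0], ![0, 0, 0, 0, 2], ![0, 0, 0, 2, 0], ![0, 0, 0, 0, 0]]
/-- coordinate 43 -/
def t43 : Fin 5 → Fin 5 → ℕ :=
  ![![0, 0, 0, 0, 0], ![0, 1, 0, 0, 0], ![0, 0, 0, 0, 0], ![0, 0, 0, 0, 2], ![0, 0, 0, 1, 0]]

/-- the check for `[h_i, [h_j, q]]` -/
def ck (j : Fin 5) : Bool :=
  frS (aw rows (hh j) (vs ql)) fun S =>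
    frS (aw rows (hh 0) S) (fun U => okc U 6 (t6 0 j) && (okc U 18 (t18 0 j) && okc U 43 (t43 0 j))) &&
    (frS (aw rows (hh 1) S) (fun U => okc U 6 (t6 1 j) && (okc U 18 (t18 1 j) && okc U 43 (t43 1 j))) &&
    (frS (aw rows (hh 2) S) (fun U => okc U 6 (t6 2 j) && (okc U 18 (t18 2 j) && okc U 43 (t43 2 j))) &&
    (frS (aw rows (hh 3) S) (fun U => okc U 6 (t6 3 j) && (okc U 18 (t18 3 j) && okc U 43 (t43 3 j))) &&
    frS (aw rows (hh 4) S) (fun U => okc U 6 (t6 4 j) && (okc U 18 (t18 4 j) && okc U 43 (t43 4 j))))))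

theorem ck0 : ck 0 = true := by decide +kernel
theorem ck1 : ck 1 = true := by decide +kernel
theorem ck2 : ck 2 = true := by decide +kernel
theorem ck3 : ck 3 = true := by decide +kernel
theorem ck4 : ck 4 = true := by decide +kernel

theorem ck_all (j : Fin 5) : ck j = true := by
  fin_cases j
  · exact ck0
  · exact ck1
  · exact ck2
  · exact ck3
  · exact ck4

theorem ck_spec (i j : Fin 5) : okc (aw rows (hh i) (aw rows (hh j) (vs ql))) 6 (t6 i j) = true ∧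
    okc (aw rows (hh i) (aw rows (hh j) (vs ql))) 18 (t18 i j) = true ∧
    okc (aw rows (hh i) (aw rows (hh j) (vs ql))) 43 (t43 i j) = true := by
  have h := ck_all j
  unfold ck at h
  simp only [frS_eq, Bool.and_eq_true] at h
  obtain ⟨h0, h1, h2, h3, h4⟩ := h
  fin_cases i
  · exact h0
  · exact h1
  · exact h2
  · exact h3
  · exact h4

/-- the index of a root -/
def ix (c : ℕ) (hc : c < 240) : chevE8.Idx := Sum.inr ⟨c, hc⟩

theorem okh (i : Fin 5) : okw (hh i) = true := by revert i; decide +kernel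

theorem okq : okw ql = true := by decide +kernel

theorem val_of {i j : Fin 5} {c e : ℕ} (hc : c < 240) (h : okc (aw rows (hh i) (aw rows (hh j) (vs ql))) c e = true) :
    br (vb (hh i)) (br (vb (hh j)) (vb ql)) (ix c hc) = vz e := by
  have hS := ((sem_vs okq).aw (okh j)).aw (okh i)
  rw [← hS.2 (ix c hc), cv_d0]
  exact okc_spec h

theorem v6 (i j : Fin 5) : br (vb (hh i)) (br (vb (hh j)) (vb ql)) (ix 6 (by norm_num)) = vz (t6 i j) :=
  val_of _ (ck_spec i j).1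

theorem v18 (i j : Fin 5) : br (vb (hh i)) (br (vb (hh j)) (vb ql)) (ix 18 (by norm_num)) = vz (t18 i j) :=
  val_of _ (ck_spec i j).2.1

theorem v43 (i j : Fin 5) : br (vb (hh i)) (br (vb (hh j)) (vb ql)) (ix 43 (by norm_num)) = vz (t43 i j) :=
  val_of _ (ck_spec i j).2.2

/-- the expansion -/
theorem expand (a b c d e : L3) (q : L3) (z1 z2 z3 z4 : ZMod 3) (x : chevE8.Idx) :
    br (a + z1 • b + z2 • c + z3 • d + z4 • e) (br (a + z1 • b + z2 • c + z3 • d + z4 • e) q) x =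
      (br a (br a q) x + z1 * br a (br b q) x + z2 * br a (br c q) x + z3 * br a (br d q) x + z4 * br a (br e q) x) +
      z1 * (br b (br a q) x + z1 * br b (br b q) x + z2 * br b (br c q) x + z3 * br b (br d q) x + z4 * br b (br e q) x) +
      z2 * (br c (br a q) x + z1 * br c (br b q) x + z2 * br c (br c q) x + z3 * br c (br d q) x + z4 * br c (br e q) x) +
      z3 * (br d (br a q) x + z1 * br d (br b q) x + z2 * br d (br c q) x + z3 * br d (br d q) x + z4 * br d (br e q) x) +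
      z4 * (br e (br a q) x + z1 * br e (br b q) x + z2 * br e (br c q) x + z3 * br e (br d q) x + z4 * br e (br e q) x) := by
  simp only [br_add_left, br_add_right, br_smul_left, br_smul_right, Pi.add_apply, Pi.smul_apply, smul_eq_mul]
  ring

/-- the equations -/
def eqs (t : Fin 5 → Fin 5 → ℕ) (z1 z2 z3 z4 : ZMod 3) : ZMod 3 :=
  (vz (t 0 0) + z1 * vz (t 0 1) + z2 * vz (t 0 2) + z3 * vz (t 0 3) + z4 * vz (t 0 4)) +
  z1 * (vz (t 1 0) + z1 * vz (t 1 1) + z2 * vz (t 1 2) + z3 * vz (t 1 3) + z4 * vz (t 1 4)) +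
  z2 * (vz (t 2 0) + z1 * vz (t 2 1) + z2 * vz (t 2 2) + z3 * vz (t 2 3) + z4 * vz (t 2 4)) +
  z3 * (vz (t 3 0) + z1 * vz (t 3 1) + z2 * vz (t 3 2) + z3 * vz (t 3 3) + z4 * vz (t 3 4)) +
  z4 * (vz (t 4 0) + z1 * vz (t 4 1) + z2 * vz (t 4 2) + z3 * vz (t 4 3) + z4 * vz (t 4 4))

theorem dec : ∀ z1 z2 z3 z4 : ZMod 3, eqs t6 z1 z2 z3 z4 = 0 → eqs t18 z1 z2 z3 z4 = 0 → eqs t43 z1 z2 z3 z4 = 0 →
    z1 = 0 ∧ z3 = 0 ∧ z4 = 0 := by decide +kernel

/-- (N1) -/
theorem n1 (z1 z2 z3 z4 : ZMod 3) (r : L3)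
    (hr : r = vb r0 + z1 • vb bh1 + z2 • vb bh2 + z3 • vb bh3 + z4 • vb bh4) (h : br r (br r (vb ql)) = 0) :
    z1 = 0 ∧ z3 = 0 ∧ z4 = 0 := by
  have hr' : r = vb (hh 0) + z1 • vb (hh 1) + z2 • vb (hh 2) + z3 • vb (hh 3) + z4 • vb (hh 4) := hr
  rw [hr'] at h
  have e6 := congrFun h (ix 6 (by norm_num))
  have e18 := congrFun h (ix 18 (by norm_num))
  have e43 := congrFun h (ix 43 (by norm_num))
  rw [expand] at e6 e18 e43
  simp only [v6] at e6
  simp only [v18] at e18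
  simp only [v43] at e43
  exact dec z1 z2 z3 z4 e6 e18 e43

end Cfsg.Agent.H74.E83.N1
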